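import Cfsg.Agent.H901.FacSp
import Cfsg.Agent.H518.DghpPSU
import Cfsg.Agent.S0815

/-!
# The triple criterion for `PSU_n(q)`, `n ≥ 7` (helper901)
-/

set_option autoImplicit false
set_option linter.unusedSectionVars false

namespace Cfsg.Agent.H901.Fac

open Module Matrix Cfsg.Agent.H518.Dghp Cfsg.Agent.H518.DghpMat Cfsg.Agent.H518.DghpPrim Cfsg.Agent.H518.DghpSep
  Cfsg.Agent.H403 Cfsg.Agent.H403.NumTop Cfsg.Agent.H161.NonAdj

/-- The data of one prime for `PSU_n(q)`: `m` the order of `q`, `e` the order of `q ^ 2`, `k` the order of `-q`. -/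
structure UD (q f r m e k : ℕ) : Prop where
  prime : r.Prime
  ord : orderOf (q : ZMod r) = m
  three : 3 ≤ m
  dim : (m % 2 = 1 ∧ e = m ∧ k = 2 * m) ∨ (m % 4 = 2 ∧ 2 * e = m ∧ k = e) ∨ (m % 4 = 0 ∧ 2 * e = m ∧ k = m)
  big : m * f < r

section

variable {q f r m e k : ℕ}

theorem UD.lt (h : UD q f r m e k) : m < r := lt_prime h.prime h.ord (by have := h.three; omega)

theorem UD.dvd (h : UD q f r m e k) : m ∣ r - 1 := dvd_pred h.prime h.ord (by have := h.three; omega)

theorem UD.two (h : UD q f r m e k) : 2 ≤ e := by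
  have h1 := h.three
  rcases h.dim with h2 | h2 | h2 <;> omega

theorem UD.le (h : UD q f r m e k) : e ≤ m := by
  have h1 := h.three
  rcases h.dim with h2 | h2 | h2 <;> omega

theorem UD.ordsq (h : UD q f r m e k) : orderOf ((q ^ 2 : ℕ) : ZMod r) = e := by
  have h3 := h.three
  rcases h.dim with ⟨h1, rfl, -⟩ | ⟨-, h1, -⟩ | ⟨-, h1, -⟩
  · push_cast
    have h4 : Nat.gcd e 2 = 1 := (Nat.odd_iff.2 h1).coprime_two_right
    rw [orderOf_pow' _ two_ne_zero, h.ord, h4, Nat.div_one]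
  · exact orderOf_sq (by rw [h.ord, h1]) (by omega)
  · exact orderOf_sq (by rw [h.ord, h1]) (by omega)

theorem UD.ordneg (h : UD q f r m e k) : orderOf ((-(q : ℤ) : ℤ) : ZMod r) = k := by
  have hf := Fact.mk h.prime
  have h3 := h.three
  have h4 := h.lt
  have hch : ringChar (ZMod r) ≠ 2 := by
    rw [ZMod.ringChar_zmod_n]
    omega
  have h2 : orderOf (-1 : ZMod r) = 2 := by rw [orderOf_neg_one, if_neg hch]
  have hm1 : (-1 : ZMod r) ≠ 1 := Ring.neg_one_ne_one_of_char_ne_two hch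
  push_cast
  rcases h.dim with ⟨h1, rfl, rfl⟩ | ⟨h0, h1, rfl⟩ | ⟨h0, h1, rfl⟩
  · have h5 : (-((q : ℕ) : ZMod r)) = (-1) * (q : ZMod r) := by ring
    have h6 : Nat.Coprime (orderOf (-1 : ZMod r)) (orderOf (q : ZMod r)) := by
      rw [h2, h.ord]
      exact (Nat.odd_iff.2 h1).coprime_two_left
    rw [h5, (Commute.all _ _).orderOf_mul_eq_mul_orderOf_of_coprime h6, h2, h.ord]
  · have h7 : (q : ZMod r) ^ k * (q : ZMod r) ^ k = 1 := by
      rw [← pow_add, ← two_mul, h1, ← h.ord, pow_orderOf_eq_one]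
    have h8 : (q : ZMod r) ^ k ≠ 1 := by
      intro h9
      have h10 := orderOf_dvd_of_pow_eq_one h9
      rw [h.ord] at h10
      have := Nat.le_of_dvd (by omega) h10
      omega
    have h9 : (q : ZMod r) ^ k = -1 := (mul_self_eq_one_iff.1 h7).resolve_left h8
    have hk : Odd k := by
      rw [Nat.odd_iff]
      omega
    have h10 : (-(q : ZMod r)) ^ k = 1 := by rw [hk.neg_pow, h9, neg_neg]
    have h11 : orderOf (-(q : ZMod r)) ∣ k := orderOf_dvd_of_pow_eq_one h10
    have h12 : Odd (orderOf (-(q : ZMod r))) := Odd.of_dvd_nat hk h11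
    have h13 : (q : ZMod r) = (-1) * (-(q : ZMod r)) := by ring
    have h14 : Nat.Coprime (orderOf (-1 : ZMod r)) (orderOf (-(q : ZMod r))) := by
      rw [h2]
      exact h12.coprime_two_left
    have h15 := (Commute.all (-1 : ZMod r) (-(q : ZMod r))).orderOf_mul_eq_mul_orderOf_of_coprime h14
    rw [← h13, h.ord, h2] at h15
    omega
  · apply Nat.dvd_antisymm
    · apply orderOf_dvd_of_pow_eq_one
      rw [(show Even k from ⟨2 * (k / 4), by omega⟩).neg_pow, ← h.ord, pow_orderOf_eq_one]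
    · have h5 := pow_orderOf_eq_one (-(q : ZMod r))
      set j := orderOf (-(q : ZMod r)) with hj
      rcases Nat.even_or_odd j with hjj | hjj
      · rw [hjj.neg_pow] at h5
        rw [← h.ord]
        exact orderOf_dvd_of_pow_eq_one h5
      · rw [hjj.neg_pow, neg_eq_iff_eq_neg] at h5
        have h6 : (q : ZMod r) ^ (2 * j) = 1 := by
          rw [mul_comm, pow_mul, h5]
          ring
        have h7 := orderOf_dvd_of_pow_eq_one h6
        rw [h.ord] at h7
        obtain ⟨c, hc⟩ := h7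
        obtain ⟨d, hd⟩ := hjj
        obtain ⟨t, ht⟩ : ∃ t, k = 4 * t := ⟨k / 4, by omega⟩
        rw [ht, mul_assoc] at hc
        omega

theorem exists_UD {p f m : ℕ} (hp : p.Prime) (hf : 1 ≤ f) (hm : 3 ≤ m) (h : ¬ (p ^ f = 2 ∧ m = 6)) {e k : ℕ}
    (hk : (m % 2 = 1 ∧ e = m ∧ k = 2 * m) ∨ (m % 4 = 2 ∧ 2 * e = m ∧ k = e) ∨ (m % 4 = 0 ∧ 2 * e = m ∧ k = m)) :
    ∃ r, UD (p ^ f) f r m e k := by
  obtain ⟨r, h1, h2, h3⟩ := exists_ppd hp hf hm h
  exact ⟨r, h1, h2, hm, hk, h3⟩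

end

section

variable {F : Type} [Field F] [Fintype F] {n q : ℕ}

/-- the inclusion -/
def rSU (n : ℕ) (F : Type) [Field F] (q : ℕ) : Cfsg.SU n F q →* GL (Fin n) F := (suHom n F q).toHomUnits

theorem rSU_injective (n : ℕ) (F : Type) [Field F] (q : ℕ) : Function.Injective (rSU n F q) := fun _ _ h =>
  suHom_injective n F q (congrArg Units.val h)

theorem cl_su (hF : Fintype.card F = q ^ 2) (g : Cfsg.SU n F q) :
    Cl (-(q : ℤ)) (evs (AlgebraicClosure F) (rSU n F q g : Matrix (Fin n) (Fin n) F)) := by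
  have hq0 : q ≠ 0 := by
    rintro rfl
    rw [zero_pow (by norm_num)] at hF
    exact Fintype.card_ne_zero hF
  have h1 : xv false q = -(q : ℤ) := by simp [xv]
  rw [← h1]
  have hAp : ∀ u v : Fin n → F, Cfsg.hermForm n F q (((g : Matrix.SpecialLinearGroup (Fin n) F) :
      Matrix (Fin n) (Fin n) F).mulVec u) (((g : Matrix.SpecialLinearGroup (Fin n) F) :
      Matrix (Fin n) (Fin n) F).mulVec v) = Cfsg.hermForm n F q u v := g.2
  refine ⟨inj_xv (t := 1) hF false, ?_, zero_notMem_evs _ _ ⟨_, rfl⟩⟩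
  exact evs_unitary hF (ClassicalGeometry.GUBasic.transpose_mul_map hq0 hAp)

theorem sep_psu (hF : Fintype.card F = q ^ 2) {f r s m₁ m₂ e₁ e₂ k₁ k₂ : ℕ} (hr : UD q f r m₁ e₁ k₁)
    (hs : UD q f s m₂ e₂ k₂) (hm : m₁ ≠ m₂) (n1 : ¬ s ∣ e₁)
    (n2 : n < s * e₁) (n3 : ¬ r ∣ e₂) (n4 : n < r * e₂) (n5 : n < k₁ + k₂)
    (n6 : n < Nat.lcm k₁ k₂) : Sep (Cfsg.PSU n F q) r s := by
  have h1 := hr.two
  have h2 := hs.two
  refine sep_center_quotient (sep_cl (rSU n F q) (rSU_injective n F q) (cl_su hF) hr.prime hs.prime ?_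
    (by rw [hF]; exact hr.ordsq) (by rw [hF]; exact hs.ordsq) (by omega) (by omega) hr.ordneg hs.ordneg n1
    (by rw [Fintype.card_fin]; exact n2) n3 (by rw [Fintype.card_fin]; exact n4) (by rw [Fintype.card_fin]; exact n5)
    (by rw [Fintype.card_fin]; exact n6))
  rintro rfl
  exact hm (hr.ord.symm.trans hs.ord)

theorem rem_psu {p f : ℕ} (hp : p.Prime) (hf : 1 ≤ f) (hF : Fintype.card F = (p ^ f) ^ 2) (hn : 4 ≤ n)
    {r m e k : ℕ} (hr : UD (p ^ f) f r m e k) (hk : k ≤ n) : Rem (Cfsg.PSU n F (p ^ f)) r := by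
  have : Fact p.Prime := ⟨hp⟩
  have h3 := hr.three
  have hb := hr.big
  have h2 := hr.two
  have hlt := hr.lt
  have hq : 1 < p ^ f := one_lt_of_sq hF
  have h1 := Cfsg.Agent.S0815.result p f hf rfl hF n (by omega) (fun h => by omega)
  have hcen : Nat.card (Subgroup.center (Cfsg.SU n F (p ^ f))) = Nat.gcd n (p ^ f + 1) :=
    Cfsg.Agent.S0279.result hF n (by omega)
  have hrg : ¬ r ∣ Nat.gcd n (p ^ f + 1) := fun h => not_dvd_add_one hq hr.ordsq h2 (h.trans (Nat.gcd_dvd_right _ _))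
  refine Rem.of_out hr.prime (o := Nat.gcd n (p ^ f + 1) * (2 * f)) ?_ (by rw [h1]; exact Dvd.intro 1 (by ring)) ?_
  · refine dvd_card_quot_center hr.prime ?_ (by rw [hcen]; exact hrg)
    have hkk : 2 ≤ k := by rcases hr.dim with h | h | h <;> omega
    have h4 := factor_dvd_card_SU hF (i := k - 1) (n := n) (by omega) (by omega)
    rw [Nat.sub_add_cancel (by omega)] at h4
    refine dvd_trans ?_ h4
    rcases hr.dim with h | ⟨ha, hb', rfl⟩ | h
    · rw [if_neg (by rw [Nat.not_even_iff]; omega)]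
      exact (dvd_pow_sub_one hq.le hr.ord).trans (Nat.pow_sub_one_dvd_pow_sub_one _ ⟨2, by omega⟩)
    · rw [if_pos (by rw [Nat.even_iff]; omega)]
      have h5 := (dvd_pow_sub_one hq.le hr.ord)
      have h6 : (p ^ f) ^ m - 1 = ((p ^ f) ^ k + 1) * ((p ^ f) ^ k - 1) := by
        rw [← hb', mul_comm 2 k, pow_mul]
        exact Nat.sq_sub_sq ((p ^ f) ^ k) 1
      rw [h6] at h5
      refine ((Nat.Prime.dvd_mul hr.prime).1 h5).resolve_right ?_
      exact not_dvd_pow_sub_one hq.le hr.ord (fun h => by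
        have := Nat.le_of_dvd (by omega) h
        omega)
    · rw [if_neg (by rw [Nat.not_even_iff]; omega)]
      exact (dvd_pow_sub_one hq.le hr.ord).trans (Nat.pow_sub_one_dvd_pow_sub_one _ ⟨1, by omega⟩)
  · intro h
    rcases (Nat.Prime.dvd_mul hr.prime).1 h with h | h
    · exact hrg h
    · have h4 := Nat.le_of_dvd (by omega) h
      have h5 : 3 * f ≤ m * f := Nat.mul_le_mul_right f h3
      omega

end

section

variable {F : Type} [Field F] [Fintype F] {n q : ℕ}

/-- Two odd `k` from `{N, N - 2, N - 4}`. -/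
theorem sep_psu_odd (hF : Fintype.card F = q ^ 2) {N f r s a b : ℕ} (hN : 9 ≤ N) (hn : n ≤ N + 1) (ha : a ≤ N)
    (ha' : N ≤ a + 4) (hb : b ≤ N) (hb' : N ≤ b + 4) (hab : a ≠ b) (ao : a % 2 = 1) (bo : b % 2 = 1)
    (hr : UD q f r (2 * a) a a) (hs : UD q f s (2 * b) b b) : Sep (Cfsg.PSU n F q) r s := by
  have h1 := hr.lt
  have h2 := hs.lt
  refine sep_psu hF hr hs (by omega) (fun h => ?_) ?_ (fun h => ?_) ?_ (by omega) ?_
  · have := Nat.le_of_dvd (by omega) h
    omega
  · calc n < s * 1 := by omega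
      _ ≤ s * a := Nat.mul_le_mul_left s (by omega)
  · have := Nat.le_of_dvd (by omega) h
    omega
  · calc n < r * 1 := by omega
      _ ≤ r * b := Nat.mul_le_mul_left r (by omega)
  · have key : Nat.gcd a b = 1 := by
      have ho : Odd (Nat.gcd a b) := Odd.of_dvd_nat (Nat.odd_iff.2 ao) (Nat.gcd_dvd_left _ _)
      have h4 : Nat.gcd a b ∣ 2 ^ 2 := by
        rcases Nat.lt_or_ge a b with h | h
        · have h5 : Nat.gcd a b ∣ b - a := Nat.dvd_sub (Nat.gcd_dvd_right _ _) (Nat.gcd_dvd_left _ _)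
          obtain h6 | h6 : b - a = 2 ∨ b - a = 4 := by omega
          · rw [h6] at h5
            exact h5.trans (by norm_num)
          · rwa [h6] at h5
        · have h5 : Nat.gcd a b ∣ a - b := Nat.dvd_sub (Nat.gcd_dvd_left _ _) (Nat.gcd_dvd_right _ _)
          obtain h6 | h6 : a - b = 2 ∨ a - b = 4 := by omega
          · rw [h6] at h5
            exact h5.trans (by norm_num)
          · rwa [h6] at h5
      have h5 : Nat.Coprime (Nat.gcd a b) (2 ^ 2) := ho.coprime_two_right.pow_right 2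
      exact Nat.eq_one_of_dvd_coprimes h5 dvd_rfl h4
    rw [Nat.Coprime.lcm_eq_mul key]
    calc n < 5 * b := by omega
      _ ≤ a * b := Nat.mul_le_mul_right b (by omega)

theorem nf0_psu_of {p f : ℕ} (hp : p.Prime) (hf : 1 ≤ f) (hF : Fintype.card F = (p ^ f) ^ 2) (hn : 4 ≤ n)
    {r s t m₁ m₂ m₃ e₁ e₂ e₃ k₁ k₂ k₃ : ℕ} (hr : UD (p ^ f) f r m₁ e₁ k₁) (hs : UD (p ^ f) f s m₂ e₂ k₂)
    (ht : UD (p ^ f) f t m₃ e₃ k₃) (l1 : k₁ ≤ n) (l2 : k₂ ≤ n) (l3 : k₃ ≤ n)
    (h12 : Sep (Cfsg.PSU n F (p ^ f)) r s) (h13 : Sep (Cfsg.PSU n F (p ^ f)) r t)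
    (h23 : Sep (Cfsg.PSU n F (p ^ f)) s t) : NF0 (Cfsg.PSU n F (p ^ f)) :=
  NF0.of_tri (rem_psu hp hf hF hn hr l1) (rem_psu hp hf hF hn hs l2) (rem_psu hp hf hF hn ht l3) h12 h13 h23

/-- A prime power as an explicit exponent. -/
theorem exists_pf_sq (F : Type) [Field F] [Fintype F] {q : ℕ} (hF : Fintype.card F = q ^ 2) :
    ∃ p f : ℕ, p.Prime ∧ 1 ≤ f ∧ q = p ^ f := by
  obtain ⟨p, g, hp, hg, h⟩ := exists_pf F
  have hd : q ∣ p ^ g := by
    rw [← h, hF]
    exact dvd_pow_self q two_ne_zero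
  obtain ⟨f, -, hq⟩ := (Nat.dvd_prime_pow hp).1 hd
  refine ⟨p, f, hp, ?_, hq⟩
  by_contra hcon
  have h0 : f = 0 := by omega
  rw [h0, pow_zero] at hq
  have h1 := one_lt_of_sq hF
  omega

/-- Explicit numerical conditions. -/
theorem sep_psu_num (hF : Fintype.card F = q ^ 2) {f r s m₁ m₂ e₁ e₂ k₁ k₂ : ℕ} (hr : UD q f r m₁ e₁ k₁)
    (hs : UD q f s m₂ e₂ k₂) (hm : m₁ ≠ m₂) (n1 : e₁ < s) (n2 : n < (m₂ + 1) * e₁) (n3 : e₂ < r)
    (n4 : n < (m₁ + 1) * e₂) (n5 : n < k₁ + k₂) (n6 : n < Nat.lcm k₁ k₂) : Sep (Cfsg.PSU n F q) r s := by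
  have h1 := hr.two
  have h2 := hs.two
  exact sep_psu hF hr hs hm (fun h => absurd (Nat.le_of_dvd (by omega) h) (by omega))
    (n2.trans_le (Nat.mul_le_mul_right _ hs.lt)) (fun h => absurd (Nat.le_of_dvd (by omega) h) (by omega))
    (n4.trans_le (Nat.mul_le_mul_right _ hr.lt)) n5 n6

/-- **`PSU_n(q)`, `n ≥ 7`, except `PSU_7(2)`.** -/
theorem nf0_psu (hF : Fintype.card F = q ^ 2) (hn : 7 ≤ n) (h72 : ¬ (n = 7 ∧ q = 2)) : NF0 (Cfsg.PSU n F q) := by
  obtain ⟨p, f, hp, hf, rfl⟩ := exists_pf_sq F hF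
  have E : ∀ {m e k : ℕ}, 3 ≤ m → ¬ (p ^ f = 2 ∧ m = 6) →
    ((m % 2 = 1 ∧ e = m ∧ k = 2 * m) ∨ (m % 4 = 2 ∧ 2 * e = m ∧ k = e) ∨ (m % 4 = 0 ∧ 2 * e = m ∧ k = m)) →
    ∃ r, UD (p ^ f) f r m e k := fun a b c => exists_UD hp hf a b c
  rcases Nat.lt_or_ge n 9 with h9 | h9
  · obtain rfl | rfl : n = 7 ∨ n = 8 := by omega
    · obtain ⟨r, hr⟩ := E (m := 14) (e := 7) (k := 7) (by norm_num) (by omega) (by norm_num)
      obtain ⟨s, hs⟩ := E (m := 10) (e := 5) (k := 5) (by norm_num) (by omega) (by norm_num)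
      have r1 := hr.lt
      have s1 := hs.lt
      by_cases h7 : orderOf ((p ^ f : ℕ) : ZMod 7) = 3
      · obtain ⟨t, ht⟩ := E (m := 6) (e := 3) (k := 3) (by norm_num) (by omega) (by norm_num)
        have t1 := ht.lt
        have t7 : t ≠ 7 := by
          rintro rfl
          rw [ht.ord] at h7
          omega
        refine nf0_psu_of hp hf hF (by norm_num) hr hs ht (by norm_num) (by norm_num) (by norm_num)
          (sep_psu_num hF hr hs (by norm_num) (by omega) (by norm_num) (by omega) (by norm_num) (by norm_num) (by decide))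
          (sep_psu_num hF hr ht (by norm_num) (by omega) (by norm_num) (by omega) (by norm_num) (by norm_num) (by decide))
          (sep_psu_num hF hs ht (by norm_num) (by omega) (by norm_num) (by omega) (by norm_num) (by norm_num) (by decide))
      · obtain ⟨t, ht⟩ := E (m := 3) (e := 3) (k := 6) (by norm_num) (by omega) (by norm_num)
        have t1 := ht.lt
        have t2 := ht.dvd
        have t4 : t ≠ 4 := by
          rintro rfl
          exact absurd ht.prime (by norm_num)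
        have t7 : 7 < t := by
          have t8 : t ≠ 7 := by
            rintro rfl
            exact h7 ht.ord
          omega
        refine nf0_psu_of hp hf hF (by norm_num) hr hs ht (by norm_num) (by norm_num) (by norm_num)
          (sep_psu_num hF hr hs (by norm_num) (by omega) (by norm_num) (by omega) (by norm_num) (by norm_num) (by decide))
          (sep_psu_num hF hr ht (by norm_num) (by omega) (by norm_num) (by omega) (by norm_num) (by norm_num) (by decide))
          (sep_psu_num hF hs ht (by norm_num) (by omega) (by norm_num) (by omega) (by norm_num) (by norm_num) (by decide))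
    · obtain ⟨r, hr⟩ := E (m := 14) (e := 7) (k := 7) (by norm_num) (by omega) (by norm_num)
      obtain ⟨s, hs⟩ := E (m := 10) (e := 5) (k := 5) (by norm_num) (by omega) (by norm_num)
      obtain ⟨t, ht⟩ := E (m := 8) (e := 4) (k := 8) (by norm_num) (by omega) (by norm_num)
      have r1 := hr.lt
      have s1 := hs.lt
      have t1 := ht.lt
      exact nf0_psu_of hp hf hF (by norm_num) hr hs ht (by norm_num) (by norm_num) (by norm_num)
        (sep_psu_num hF hr hs (by norm_num) (by omega) (by norm_num) (by omega) (by norm_num) (by norm_num) (by decide))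
        (sep_psu_num hF hr ht (by norm_num) (by omega) (by norm_num) (by omega) (by norm_num) (by norm_num) (by decide))
        (sep_psu_num hF hs ht (by norm_num) (by omega) (by norm_num) (by omega) (by norm_num) (by norm_num) (by decide))
  · obtain ⟨N, hN, ho, h1, h2⟩ : ∃ N, 9 ≤ N ∧ N % 2 = 1 ∧ N ≤ n ∧ n ≤ N + 1 := by
      rcases Nat.mod_two_eq_zero_or_one n with h | h
      · exact ⟨n - 1, by omega, by omega, by omega, by omega⟩
      · exact ⟨n, by omega, h, le_rfl, by omega⟩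
    obtain ⟨r, hr⟩ := E (m := 2 * N) (e := N) (k := N) (by omega) (by omega) (Or.inr (Or.inl ⟨by omega, rfl, rfl⟩))
    obtain ⟨s, hs⟩ := E (m := 2 * (N - 2)) (e := N - 2) (k := N - 2) (by omega) (by omega)
      (Or.inr (Or.inl ⟨by omega, rfl, rfl⟩))
    obtain ⟨t, ht⟩ := E (m := 2 * (N - 4)) (e := N - 4) (k := N - 4) (by omega) (by omega)
      (Or.inr (Or.inl ⟨by omega, rfl, rfl⟩))
    exact nf0_psu_of hp hf hF (by omega) hr hs ht (by omega) (by omega) (by omega)
      (sep_psu_odd hF hN h2 (by omega) (by omega) (by omega) (by omega) (by omega) (by omega) (by omega) hr hs)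
      (sep_psu_odd hF hN h2 (by omega) (by omega) (by omega) (by omega) (by omega) (by omega) (by omega) hr ht)
      (sep_psu_odd hF hN h2 (by omega) (by omega) (by omega) (by omega) (by omega) (by omega) (by omega) hs ht)

end

end Cfsg.Agent.H901.Fac
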