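import Cfsg.Agent.H901.FacBridge
import Cfsg.Agent.H901.FacPSU
import Cfsg.Agent.S0283

/-!
# `PSU_n(q)`, `n ≥ 7`, in the form of H176.NF (helper901)
-/

set_option autoImplicit false

namespace Cfsg.Agent.H901.Fac

/-- `PSU_n(q)`, `n ≥ 7`, except `PSU_7(2)`. -/
theorem row_psu_ge_seven (F : Type) [Field F] [Fintype F] (n q : ℕ) (hF : Fintype.card F = q ^ 2) (hn : 7 ≤ n)
    (h72 : ¬ (n = 7 ∧ q = 2)) : H176.NF.NF (Cfsg.PSU n F q) :=
  have := Cfsg.Agent.S0283.result hF n (by omega) (by omega)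
  (nf0_psu hF hn h72).to176

end Cfsg.Agent.H901.Fac
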